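/-
The group presented by Steinberg's relations `(R1)`, `(R2)`: basic relations and perfectness.
-/
import Mathlib
import Cfsg.Prelude.Def_SteinbergCover
import Cfsg.Prelude.Def_ChevB2
import Cfsg.Prelude.Def_ChevG2
import Cfsg.Prelude.Def_ChevD4
import Cfsg.Prelude.Def_ChevF4
import Cfsg.Prelude.Def_ChevE6
import Cfsg.Prelude.Def_ChevE7
import Cfsg.Prelude.Def_ChevE8

set_option autoImplicit false

namespace Cfsg.Agent.Lib.StCover.Basic

open Cfsg Lie ChevalleyDatum

variable {D : ChevalleyDatum} {K : Type*} [Field K]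

/-- The canonical map. -/
abbrev mkC (D : ChevalleyDatum) (K : Type*) [Field K] : FreeGroup (Fin D.nroots × K) →* D.SteinbergCover K :=
  PresentedGroup.mk (D.steinbergRelsAB K)

lemma sc_add {r : ℕ} (hr : r < D.nroots) (t₁ t₂ : K) :
    D.scGen K r t₁ * D.scGen K r t₂ = D.scGen K r (t₁ + t₂) := by
  have h : mkC D K (D.stX r t₁ * D.stX r t₂ * (D.stX r (t₁ + t₂))⁻¹) = 1 :=
    PresentedGroup.one_of_mem (Or.inl ⟨r, t₁, t₂, hr, rfl⟩)
  rw [map_mul, map_mul, map_inv] at h
  exact mul_inv_eq_one.1 h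

lemma sc_zero {r : ℕ} (hr : r < D.nroots) : D.scGen K r (0 : K) = 1 := by
  have h := sc_add (K := K) hr 0 0
  rw [add_zero] at h
  exact mul_eq_left.1 h

lemma sc_neg {r : ℕ} (hr : r < D.nroots) (t : K) : (D.scGen K r t)⁻¹ = D.scGen K r (-t) := by
  rw [inv_eq_iff_mul_eq_one, sc_add hr, add_neg_cancel, sc_zero hr]

lemma mk_stWord (w : List (ℕ × K)) : mkC D K (D.stWord w) = (w.map fun p => D.scGen K p.1 p.2).prod := by
  unfold ChevalleyDatum.stWord
  rw [map_list_prod, List.map_map]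
  rfl

/-- The commutator relation. -/
lemma sc_comm {r s : ℕ} (hr : r < D.nroots) (hs : s < D.nroots) (hsr : s ≠ r) (hsn : s ≠ D.neg r) (t u : K) :
    (D.scGen K s u)⁻¹ * (D.scGen K r t)⁻¹ * D.scGen K s u * D.scGen K r t =
      ((D.commWord K r s t u).map fun p => D.scGen K p.1 p.2).prod := by
  have h : mkC D K ((D.stX s u)⁻¹ * (D.stX r t)⁻¹ * D.stX s u * D.stX r t * (D.stWord (D.commWord K r s t u))⁻¹) = 1 :=
    PresentedGroup.one_of_mem (Or.inr ⟨r, s, t, u, hr, hs, hsr, hsn, rfl⟩)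
  rw [map_mul, map_inv, mk_stWord] at h
  rw [← mul_inv_eq_one]
  exact h

/-- Generators. -/
lemma eq_top_of_gens (H : Subgroup (D.SteinbergCover K)) (h : ∀ r, r < D.nroots → ∀ t : K, D.scGen K r t ∈ H) : H = ⊤ := by
  rw [eq_top_iff, ← PresentedGroup.closure_range_of, Subgroup.closure_le]
  rintro _ ⟨⟨⟨r, hr⟩, t⟩, rfl⟩
  have := h r hr t
  have h2 : D.scGen K r t = PresentedGroup.of (⟨r, hr⟩, t) := by
    unfold ChevalleyDatum.scGen ChevalleyDatum.stX
    rw [dif_pos hr]
    rfl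
  rwa [h2] at this

/-- Commutators lie in the commutator subgroup. -/
lemma comm_mem {G : Type*} [Group G] (a b : G) : a⁻¹ * b⁻¹ * a * b ∈ commutator G := by
  have h := Subgroup.commutator_mem_commutator (Subgroup.mem_top a⁻¹) (Subgroup.mem_top b⁻¹)
  rw [commutatorElement_def, inv_inv, inv_inv] at h
  exact h

/-- A commutator witness with one term. -/
lemma mem_of_wit {r a b : ℕ} {c : ℤ} (ha : a < D.nroots) (hb : b < D.nroots) (hba : b ≠ a) (hbn : b ≠ D.neg a)
    (hw : D.commTerms a b = [(r, c, 1, 1)]) (hc : c = 1 ∨ c = -1) (v : K) :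
    D.scGen K r v ∈ commutator (D.SteinbergCover K) := by
  have h := sc_comm (K := K) ha hb hba hbn (- (c : K) * v) 1
  have h1 := comm_mem (D.scGen K b 1) (D.scGen K a (- (c : K) * v))
  rw [h] at h1
  simp only [commWord, hw, List.map_cons, List.map_nil, List.prod_cons, List.prod_nil, mul_one] at h1
  convert h1 using 2
  rcases hc with rfl | rfl <;> simp

/-- Check of one witness per root. -/
def witCheck (D : ChevalleyDatum) (wit : List (ℕ × ℕ × ℤ)) : Bool :=
  (List.range D.nroots).all fun r =>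
    let w := wit.getD r (0, 0, 0)
    decide (w.1 < D.nroots) && decide (w.2.1 < D.nroots) && decide (w.2.1 ≠ w.1) && decide (w.2.1 ≠ D.neg w.1) &&
      decide (D.commTerms w.1 w.2.1 = [(r, w.2.2, 1, 1)]) && (decide (w.2.2 = 1) || decide (w.2.2 = -1))

/-- Perfectness from a table of witnesses. -/
theorem perfect_of_check {wit : List (ℕ × ℕ × ℤ)} (hc : witCheck D wit = true) :
    commutator (D.SteinbergCover K) = ⊤ := by
  apply eq_top_of_gens
  intro r hr t
  have h := List.all_eq_true.1 hc r (List.mem_range.2 hr)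
  simp only [Bool.and_eq_true, decide_eq_true_eq, Bool.or_eq_true] at h
  obtain ⟨⟨⟨⟨⟨h1, h2⟩, h3⟩, h4⟩, h5⟩, h6⟩ := h
  exact mem_of_wit h1 h2 h3 h4 h5 h6 t

/-- The two-parameter argument for non-simply-laced rank two types. -/
lemma mem_of_two {A B a b : ℕ} {c₁ c₂ : ℤ} {rest : List (ℕ × ℤ × ℕ × ℕ)} (hA : A < D.nroots) (hB : B < D.nroots)
    (ha : a < D.nroots) (hb : b < D.nroots) (hba : b ≠ a) (hbn : b ≠ D.neg a)
    (hw : D.commTerms a b = (A, c₁, 1, 1) :: (B, c₂, 1, 2) :: rest)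
    (hc₁ : c₁ = 1 ∨ c₁ = -1) (hc₂ : c₂ = 1 ∨ c₂ = -1)
    (hrest : ∀ e ∈ rest, ∀ t : K, D.scGen K e.1 t ∈ commutator (D.SteinbergCover K))
    {x : K} (hx0 : x ≠ 0) (hx1 : x ≠ 1) :
    (∀ t : K, D.scGen K A t ∈ commutator (D.SteinbergCover K)) ∧ (∀ t : K, D.scGen K B t ∈ commutator (D.SteinbergCover K)) := by
  set C := commutator (D.SteinbergCover K) with hC
  have hu1 : ((c₁ : ℤ) : K) * (c₁ : K) = 1 := by rcases hc₁ with rfl | rfl <;> simp
  have hu2 : ((c₂ : ℤ) : K) * (c₂ : K) = 1 := by rcases hc₂ with rfl | rfl <;> simp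
  have hP : ∀ t u : K, D.scGen K A ((c₁ : K) * (-t) * u) * D.scGen K B ((c₂ : K) * (-t) * u ^ 2) ∈ C := by
    intro t u
    have h := sc_comm (K := K) ha hb hba hbn t u
    have h1 := comm_mem (D.scGen K b u) (D.scGen K a t)
    rw [h] at h1
    simp only [commWord, hw, List.map_cons, List.prod_cons, pow_one] at h1
    rw [← mul_assoc] at h1
    have h2 : (List.map (fun p : ℕ × K => D.scGen K p.1 p.2) (List.map (fun c : ℕ × ℤ × ℕ × ℕ => (c.1, (c.2.1 : K) * (-t) ^ c.2.2.1 * u ^ c.2.2.2)) rest)).prod ∈ C := by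
      apply Subgroup.list_prod_mem
      intro y hy
      simp only [List.mem_map] at hy
      obtain ⟨_, ⟨e, he, rfl⟩, rfl⟩ := hy
      exact hrest e he _
    exact (Subgroup.mul_mem_cancel_right _ h2).1 h1
  have hB' : ∀ y : K, D.scGen K B y ∈ C := by
    intro y
    have hx : x - 1 ≠ 0 := sub_ne_zero.2 hx1
    set s : K := y * (c₁ : K) * (c₂ : K) / (x - 1) with hs
    have h1 := hP (- s * (c₁ : K)) 1
    have h2 := hP (- s * (c₁ : K) / x) x
    have e1 : (c₁ : K) * (-(- s * (c₁ : K))) * 1 = s := by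
      linear_combination s * hu1
    have e2 : (c₁ : K) * (-(- s * (c₁ : K) / x)) * x = s := by
      field_simp
      linear_combination s * hu1
    rw [e1] at h1
    rw [e2] at h2
    have h3 := C.mul_mem (C.inv_mem h1) h2
    rw [mul_inv_rev, sc_neg hA, sc_neg hB, mul_assoc, ← mul_assoc (D.scGen K A (-s)), sc_add hA, neg_add_cancel, sc_zero hA, one_mul, sc_add hB] at h3
    convert h3 using 2
    have e3 : (c₂ : K) * (-(- s * (c₁ : K) / x)) * x ^ 2 = (c₂ : K) * (c₁ : K) * s * x := by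
      field_simp
    have e4 : (c₂ : K) * (-(- s * (c₁ : K))) * 1 ^ 2 = (c₂ : K) * (c₁ : K) * s := by ring
    rw [e3, e4]
    have e5 : s * (x - 1) = y * (c₁ : K) * (c₂ : K) := by
      rw [hs]
      field_simp
    linear_combination (-((c₂ : K) * (c₁ : K))) * e5 - y * (c₂ : K) * (c₂ : K) * hu1 - y * hu2
  refine ⟨?_, hB'⟩
  intro v
  have h1 := hP (- v * (c₁ : K)) 1
  have e1 : (c₁ : K) * (-(- v * (c₁ : K))) * 1 = v := by
    linear_combination v * hu1
  rw [e1] at h1
  exact (Subgroup.mul_mem_cancel_right _ (hB' _)).1 h1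

set_option maxRecDepth 1000000 in
theorem wit_D4 : witCheck chevD4 [(1,9,1), (0,14,1), (0,15,-1), (0,16,-1), (0,17,1), (1,17,1), (0,19,-1), (0,20,1), (0,21,1), (0,22,-1), (1,20,-1), (1,21,-1), (2,22,-1), (3,22,-1), (1,23,-1), (2,23,1), (3,23,1), (4,23,-1), (6,22,1), (6,23,1), (7,23,-1), (8,23,-1), (9,23,1), (14,22,1)] = true := by decide +kernel

set_option maxRecDepth 1000000 in
theorem wit_F4 : witCheck chevF4 [(1,23,1), (0,24,1), (0,26,1), (7,14,1), (0,31,-1), (0,32,1), (1,32,1), (3,33,1), (3,34,1), (3,35,-1), (3,36,1), (3,37,-1), (3,38,1), (3,39,-1), (3,40,-1), (0,42,-1), (0,43,1), (1,43,1), (7,37,-1), (7,38,1), (7,39,-1), (0,45,-1), (1,45,-1), (0,46,-1), (1,47,-1), (2,46,-1), (2,47,-1), (8,40,-1), (9,40,1), (10,40,-1), (4,46,1), (4,47,1), (5,47,-1), (7,44,-1), (8,44,-1), (9,44,1), (10,44,-1), (11,44,1), (12,44,-1), (13,44,1), (14,44,1), (15,46,1), (15,47,1), (16,47,-1), (33,40,1), (21,47,1), (23,47,1), (24,46,1)] = true := by decide +kernel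

set_option maxRecDepth 1000000 in
theorem wit_E6 : witCheck chevE6 [(1,25,1), (0,46,1), (0,47,-1), (0,48,1), (0,49,-1), (0,50,1), (0,51,-1), (0,52,1), (0,53,1), (0,54,-1), (0,55,1), (1,53,1), (1,54,-1), (1,55,1), (2,55,1), (5,55,1), (0,61,-1), (0,62,1), (0,63,-1), (0,64,-1), (0,65,1), (0,66,-1), (0,67,1), (0,68,-1), (0,69,1), (0,70,-1), (1,64,-1), (1,65,1), (1,66,-1), (2,66,-1), (1,67,-1), (1,68,1), (1,69,-1), (2,67,1), (2,68,-1), (3,67,-1), (4,68,-1), (3,69,-1), (4,69,1), (2,70,-1), (3,70,1), (4,70,-1), (5,69,-1), (5,70,-1), (6,70,1), (7,70,-1), (1,71,-1), (2,71,1), (3,71,-1), (4,71,1), (5,71,-1), (6,71,1), (7,71,-1), (8,71,-1), (9,71,1), (10,71,-1), (16,66,1), (16,69,1), (16,70,1), (17,70,-1), (18,70,1), (16,71,1), (17,71,-1), (18,71,1), (19,71,1), (20,71,-1), (21,71,1), (22,71,-1), (23,71,1), (24,71,-1), (25,71,1), (46,70,1)] = true := by decide +kernel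

set_option maxRecDepth 1000000 in
theorem wit_E7 : witCheck chevE7 [(1,32,1), (0,93,1), (0,94,-1), (0,95,1), (0,96,-1), (0,97,1), (0,98,-1), (0,99,-1), (0,100,1), (0,101,-1), (0,102,1), (0,103,-1), (0,104,1), (0,105,-1), (0,106,-1), (0,107,1), (0,108,-1), (0,109,1), (0,110,-1), (0,111,1), (0,112,1), (0,113,-1), (0,114,1), (0,115,-1), (0,116,1), (0,117,-1), (0,118,1), (0,119,1), (0,120,-1), (0,121,1), (0,122,-1), (0,123,1), (0,124,-1), (1,109,-1), (1,110,1), (1,111,-1), (1,112,-1), (1,113,1), (1,114,-1), (1,115,1), (1,116,-1), (1,117,1), (1,118,-1), (2,115,1), (2,116,-1), (2,117,1), (2,118,-1), (3,118,-1), (1,119,-1), (1,120,1), (1,121,-1), (1,122,1), (1,123,-1), (2,119,1), (2,120,-1), (2,121,1), (2,122,-1), (3,119,-1), (3,120,1), (3,121,-1), (4,119,1), (4,120,-1), (5,119,-1), (6,120,-1), (5,121,-1), (6,121,1), (4,122,-1), (5,122,1), (6,122,-1), (3,123,-1), (4,123,1), (5,123,-1), (6,123,1), (2,124,-1), (3,124,1), (4,124,-1), (5,124,1), (6,124,-1), (7,122,-1),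 (7,123,-1), (8,123,1), (9,123,-1), (10,123,1), (7,124,-1), (8,124,1), (9,124,-1), (10,124,1), (11,124,-1), (12,124,1), (13,124,-1), (14,124,-1), (15,124,1), (16,124,-1), (1,125,-1), (2,125,1), (3,125,-1), (4,125,1), (5,125,-1), (6,125,1), (7,125,1), (8,125,-1), (9,125,1), (10,125,-1), (11,125,1), (12,125,-1), (13,125,1), (14,125,1), (15,125,-1), (16,125,1), (17,125,-1), (18,125,1), (19,125,-1), (20,125,-1), (21,125,1), (22,125,-1), (23,125,1), (24,125,-1), (25,125,1), (26,125,-1), (27,125,-1), (28,125,1), (29,125,-1), (30,125,1), (31,125,-1), (32,125,1), (93,124,1)] = true := by decide +kernel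

set_option maxRecDepth 1000000 in
theorem wit_E8 : witCheck chevE8 [(1,119,1), (0,120,1), (0,122,1), (0,125,1), (0,129,1), (0,134,1), (0,140,1), (0,146,1), (0,151,-1), (0,155,1), (0,158,-1), (0,160,1), (0,161,-1), (1,161,-1), (0,168,1), (0,173,-1), (0,177,1), (0,180,-1), (0,182,1), (0,183,-1), (1,183,-1), (0,187,-1), (0,190,1), (0,192,-1), (0,193,1), (1,193,1), (0,196,-1), (0,198,1), (0,199,-1), (1,199,-1), (0,201,-1), (0,202,1), (1,202,1), (0,203,-1), (1,203,-1), (2,203,-1), (0,206,1), (0,208,-1), (0,209,1), (1,209,1), (0,211,1), (0,212,-1), (1,212,-1), (0,213,1), (1,213,1), (2,213,1), (0,215,-1), (0,216,1), (1,216,1), (0,217,-1), (1,217,-1), (2,217,-1), (0,218,1), (1,218,1), (2,218,1), (3,218,1), (0,220,1), (0,221,-1), (1,221,-1), (0,222,1), (1,222,1), (2,222,1), (0,223,-1), (1,223,-1), (2,223,-1), (3,223,-1), (0,224,1), (1,224,1), (2,224,1), (3,224,1), (4,224,1), (0,225,-1), (1,225,-1), (2,225,-1), (3,225,-1), (4,225,-1), (5,225,-1), (6,225,-1), (0,227,1),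 (0,228,-1), (1,228,-1), (0,229,1), (1,229,1), (2,229,1), (0,230,-1), (1,230,-1), (2,230,-1), (3,230,-1), (0,231,1), (1,231,1), (2,231,1), (3,231,1), (4,231,1), (0,232,-1), (1,232,-1), (2,232,-1), (3,232,-1), (4,232,-1), (5,232,-1), (0,233,-1), (1,233,-1), (2,233,-1), (3,233,-1), (4,233,-1), (5,233,-1), (0,234,-1), (1,234,-1), (2,234,-1), (3,234,-1), (4,234,-1), (0,235,-1), (1,235,-1), (2,235,-1), (3,235,-1), (0,236,-1), (1,236,-1), (2,236,-1), (0,237,-1), (1,237,-1), (0,238,-1), (1,239,-1), (2,238,-1), (2,239,-1), (3,237,-1), (3,238,-1), (3,239,-1), (4,236,-1), (4,237,-1), (4,238,-1), (4,239,-1), (5,235,-1), (5,236,-1), (5,237,-1), (5,238,-1), (5,239,-1), (6,234,-1), (6,235,-1), (6,236,-1), (6,237,-1), (6,238,-1), (6,239,-1), (7,234,-1), (7,235,-1), (7,236,-1), (7,237,-1), (7,238,-1), (7,239,-1), (8,235,1), (8,236,1), (8,237,1), (8,238,1), (8,239,1), (9,236,-1), (9,237,-1), (9,238,-1), (9,239,-1), (10,237,1), (10,238,1), (10,239,1), (11,238,-1), (11,239,-1),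 (12,239,1), (14,233,-1), (14,234,-1), (14,235,-1), (14,236,-1), (14,237,-1), (14,238,-1), (14,239,-1), (15,235,1), (15,236,1), (15,237,1), (15,238,1), (15,239,1), (16,236,-1), (16,237,-1), (16,238,-1), (16,239,-1), (17,237,1), (17,238,1), (17,239,1), (18,238,-1), (18,239,-1), (19,239,1), (21,236,1), (21,237,1), (21,238,1), (21,239,1), (22,237,-1), (22,238,-1), (22,239,-1), (23,238,1), (23,239,1), (24,239,-1), (26,237,1), (26,238,1), (26,239,1), (27,238,-1), (27,239,-1), (28,239,1), (30,238,1), (30,239,1), (31,239,-1), (33,239,1), (36,237,-1), (36,238,-1), (36,239,-1), (37,238,1), (37,239,1), (38,239,-1), (40,238,-1), (40,239,-1), (41,239,1), (43,239,-1), (46,238,1), (46,239,1), (47,239,-1), (49,239,1), (52,239,-1), (56,238,-1), (56,239,-1), (57,239,1), (59,239,-1), (62,239,1), (66,239,-1), (71,239,1), (78,238,-1), (78,239,-1), (79,239,1), (81,239,-1), (84,239,1), (88,239,-1), (93,239,1), (99,239,1), (105,239,1), (110,239,1), (114,239,1), (117,239,1), (119,239,1),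 (120,238,1)] = true := by decide +kernel


theorem perfect_G2 (hx : ∃ x : K, x ≠ 0 ∧ x ≠ 1) : commutator (chevG2.SteinbergCover K) = ⊤ := by
  obtain ⟨x, hx0, hx1⟩ := hx
  have hlong : ∀ r, r ∈ [0, 1, 5, 6, 10, 11] → ∀ t : K, chevG2.scGen K r t ∈ commutator (chevG2.SteinbergCover K) := by
    intro r hr t
    simp only [List.mem_cons, List.not_mem_nil, or_false] at hr
    rcases hr with rfl | rfl | rfl | rfl | rfl | rfl
    · exact mem_of_wit (a := 1) (b := 5) (c := 1) (by decide +kernel) (by decide +kernel) (by decide +kernel) (by decide +kernel) (by decide +kernel) (by decide +kernel) t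
    · exact mem_of_wit (a := 0) (b := 6) (c := 1) (by decide +kernel) (by decide +kernel) (by decide +kernel) (by decide +kernel) (by decide +kernel) (by decide +kernel) t
    · exact mem_of_wit (a := 0) (b := 10) (c := -1) (by decide +kernel) (by decide +kernel) (by decide +kernel) (by decide +kernel) (by decide +kernel) (by decide +kernel) t
    · exact mem_of_wit (a := 1) (b := 11) (c := -1) (by decide +kernel) (by decide +kernel) (by decide +kernel) (by decide +kernel) (by decide +kernel) (by decide +kernel) t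
    · exact mem_of_wit (a := 5) (b := 11) (c := 1) (by decide +kernel) (by decide +kernel) (by decide +kernel) (by decide +kernel) (by decide +kernel) (by decide +kernel) t
    · exact mem_of_wit (a := 6) (b := 10) (c := 1) (by decide +kernel) (by decide +kernel) (by decide +kernel) (by decide +kernel) (by decide +kernel) (by decide +kernel) t
  have two : ∀ (a b A B : ℕ) (c₁ c₂ : ℤ) (rest : List (ℕ × ℤ × ℕ × ℕ)), a < chevG2.nroots → b < chevG2.nroots → b ≠ a → b ≠ chevG2.neg a →
      A < chevG2.nroots → B < chevG2.nroots →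
      chevG2.commTerms a b = (A, c₁, 1, 1) :: (B, c₂, 1, 2) :: rest → (c₁ = 1 ∨ c₁ = -1) → (c₂ = 1 ∨ c₂ = -1) → (∀ e ∈ rest, e.1 ∈ [0, 1, 5, 6, 10, 11]) →
      (∀ t : K, chevG2.scGen K A t ∈ commutator (chevG2.SteinbergCover K)) ∧ (∀ t : K, chevG2.scGen K B t ∈ commutator (chevG2.SteinbergCover K)) := by
    intro a b A B c₁ c₂ rest ha hb hba hbn hA hB hw h1 h2 hr
    exact mem_of_two hA hB ha hb hba hbn hw h1 h2 (fun e he t => hlong _ (hr e he) t) hx0 hx1
  obtain ⟨h2, h4⟩ := two 0 8 2 4 1 1 [(6, -1, 1, 3), (1, -2, 2, 3)] (by decide +kernel) (by decide +kernel) (by decide +kernel) (by decide +kernel) (by decide +kernel) (by decide +kernel) (by decide +kernel) (by decide +kernel) (by decide +kernel) (by decide +kernel)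
  obtain ⟨h3, h7⟩ := two 0 9 3 7 (-1) (-1) [(10, -1, 1, 3), (5, 2, 2, 3)] (by decide +kernel) (by decide +kernel) (by decide +kernel) (by decide +kernel) (by decide +kernel) (by decide +kernel) (by decide +kernel) (by decide +kernel) (by decide +kernel) (by decide +kernel)
  obtain ⟨_, h8⟩ := two 1 9 4 8 (-1) 1 [(11, 1, 1, 3), (6, -2, 2, 3)] (by decide +kernel) (by decide +kernel) (by decide +kernel) (by decide +kernel) (by decide +kernel) (by decide +kernel) (by decide +kernel) (by decide +kernel) (by decide +kernel) (by decide +kernel)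
  obtain ⟨_, h9⟩ := two 5 8 7 9 1 (-1) [(11, 1, 1, 3), (10, 2, 2, 3)] (by decide +kernel) (by decide +kernel) (by decide +kernel) (by decide +kernel) (by decide +kernel) (by decide +kernel) (by decide +kernel) (by decide +kernel) (by decide +kernel) (by decide +kernel)
  apply eq_top_of_gens
  intro r hr t
  have hn : chevG2.nroots = 12 := by decide +kernel
  rw [hn] at hr
  have h0 : r ∈ [0, 1, 5, 6, 10, 11] ∨ r = 2 ∨ r = 3 ∨ r = 4 ∨ r = 7 ∨ r = 8 ∨ r = 9 := by
    simp only [List.mem_cons, List.not_mem_nil, or_false]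
    omega
  rcases h0 with h | rfl | rfl | rfl | rfl | rfl | rfl
  · exact hlong r h t
  · exact h2 t
  · exact h3 t
  · exact h4 t
  · exact h7 t
  · exact h8 t
  · exact h9 t

theorem perfect_B2 (hx : ∃ x : K, x ≠ 0 ∧ x ≠ 1) : commutator (chevB2.SteinbergCover K) = ⊤ := by
  obtain ⟨x, hx0, hx1⟩ := hx
  have two : ∀ (a b A B : ℕ) (c₁ c₂ : ℤ), a < chevB2.nroots → b < chevB2.nroots → b ≠ a → b ≠ chevB2.neg a →
      A < chevB2.nroots → B < chevB2.nroots →
      chevB2.commTerms a b = [(A, c₁, 1, 1), (B, c₂, 1, 2)] → (c₁ = 1 ∨ c₁ = -1) → (c₂ = 1 ∨ c₂ = -1) →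
      (∀ t : K, chevB2.scGen K A t ∈ commutator (chevB2.SteinbergCover K)) ∧ (∀ t : K, chevB2.scGen K B t ∈ commutator (chevB2.SteinbergCover K)) := by
    intro a b A B c₁ c₂ ha hb hba hbn hA hB hw h1 h2
    exact mem_of_two (rest := []) hA hB ha hb hba hbn hw h1 h2 (fun e he t => absurd he (List.not_mem_nil)) hx0 hx1
  obtain ⟨h1, h0⟩ := two 3 2 1 0 (-1) (-1) (by decide +kernel) (by decide +kernel) (by decide +kernel) (by decide +kernel) (by decide +kernel) (by decide +kernel) (by decide +kernel) (by decide +kernel) (by decide +kernel)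
  obtain ⟨_, h3⟩ := two 0 5 1 3 1 (-1) (by decide +kernel) (by decide +kernel) (by decide +kernel) (by decide +kernel) (by decide +kernel) (by decide +kernel) (by decide +kernel) (by decide +kernel) (by decide +kernel)
  obtain ⟨h2, h4⟩ := two 0 6 2 4 (-1) 1 (by decide +kernel) (by decide +kernel) (by decide +kernel) (by decide +kernel) (by decide +kernel) (by decide +kernel) (by decide +kernel) (by decide +kernel) (by decide +kernel)
  obtain ⟨h5, h7⟩ := two 3 6 5 7 1 1 (by decide +kernel) (by decide +kernel) (by decide +kernel) (by decide +kernel) (by decide +kernel) (by decide +kernel) (by decide +kernel) (by decide +kernel) (by decide +kernel)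
  obtain ⟨h6, _⟩ := two 4 5 6 7 1 (-1) (by decide +kernel) (by decide +kernel) (by decide +kernel) (by decide +kernel) (by decide +kernel) (by decide +kernel) (by decide +kernel) (by decide +kernel) (by decide +kernel)
  apply eq_top_of_gens
  intro r hr t
  have hn : chevB2.nroots = 8 := by decide +kernel
  rw [hn] at hr
  interval_cases r
  · exact h0 t
  · exact h1 t
  · exact h2 t
  · exact h3 t
  · exact h4 t
  · exact h5 t
  · exact h6 t
  · exact h7 t

/-- Perfectness of the Steinberg cover for the tabulated types. -/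
theorem perfect (D : ChevalleyDatum) (hD : D ∈ [chevG2, chevB2, chevD4, chevF4, chevE6, chevE7, chevE8])
    (hK : D ∈ [chevB2, chevG2] → ∃ x : K, x ≠ 0 ∧ x ≠ 1) : commutator (D.SteinbergCover K) = ⊤ := by
  simp only [List.mem_cons, List.not_mem_nil, or_false] at hD
  rcases hD with rfl | rfl | rfl | rfl | rfl | rfl | rfl
  · exact perfect_G2 (hK (by simp))
  · exact perfect_B2 (hK (by simp))
  · exact perfect_of_check wit_D4
  · exact perfect_of_check wit_F4
  · exact perfect_of_check wit_E6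
  · exact perfect_of_check wit_E7
  · exact perfect_of_check wit_E8

end Cfsg.Agent.Lib.StCover.Basic
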